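import Cfsg.Agent.Lib.Helper57.OE.Defs

set_option autoImplicit false

/-! # Even-dimensional orthogonal rows: long root elements, vocabulary for parts (B), (C), (D) -/

namespace Cfsg.Agent.Lib.Helper90.OE

open Cfsg Cfsg.Geo Matrix
open scoped MatrixGroups

variable {ι : Type} [Fintype ι] [DecidableEq ι] {F : Type*} [Field F]

/-- `u, v` span a totally singular plane -/
structure TSPair (Q : (ι → F) → F) (u v : ι → F) : Prop where
  qu : Q u = 0
  qv : Q v = 0
  puv : QuadraticMap.polar Q u v = 0
  indep : LinearIndependent F ![u, v]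

/-- the long root map `x ↦ x + B(v,x) u - B(u,x) v` -/
def rootMap (Q : (ι → F) → F) (u v x : ι → F) : ι → F :=
  x + QuadraticMap.polar Q v x • u - QuadraticMap.polar Q u x • v

/-- `M` contains all long root elements of `Q` -/
def RootIn (Q : (ι → F) → F) (M : Subgroup (GL ι F)) : Prop :=
  ∀ u v : ι → F, TSPair Q u v → ∃ g ∈ M, ∀ x, (g : Matrix ι ι F) *ᵥ x = rootMap Q u v x

/-- `(e, f)` is a hyperbolic pair -/
structure HypPair (Q : (ι → F) → F) (e f : ι → F) : Prop where
  qe : Q e = 0
  qf : Q f = 0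
  pef : QuadraticMap.polar Q e f = 1

/-- `x` is orthogonal to `e` and `f` -/
def Perp2 (Q : (ι → F) → F) (e f x : ι → F) : Prop :=
  QuadraticMap.polar Q e x = 0 ∧ QuadraticMap.polar Q f x = 0

end Cfsg.Agent.Lib.Helper90.OE
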