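import Cfsg.Agent.Lib.Helper90.OE.Defs
import Cfsg.Agent.Lib.Helper86.OE.N0
import Cfsg.Agent.Lib.Helper15.OE.ZC1
import Cfsg.Agent.Lib.Helper15.OE.ZC2
import Cfsg.Agent.Lib.Helper15.OE.ZC9
import Cfsg.Agent.Lib.Helper15.OE.ZC9b
import Cfsg.Agent.Lib.Helper57.OE.ZC5
import Cfsg.Agent.Lib.Helper57.OE.ZC7
import Cfsg.Agent.Lib.Helper55.Asch.DecCore

set_option autoImplicit false

/-! # `omegaGL Q` is not contained in a decomposition stabiliser / tensor product subgroup -/

namespace Cfsg.Agent.Lib.Helper90.OE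

open Cfsg Cfsg.Geo Matrix Cfsg.Agent.Lib.Helper13.Asch Cfsg.Agent.Lib.Helper90.Sp
open Cfsg.Agent.Lib.Helper57.OE Cfsg.Agent.Lib.Helper15.OE
open scoped Kronecker MatrixGroups

variable {ι : Type} [Fintype ι] [DecidableEq ι] {F : Type*} [Field F] {Q : (ι → F) → F}

theorem rootIn_omega [Fintype F] (hQ : IsNondegenerateQuadraticForm Q) (hι : 5 ≤ Fintype.card ι) :
    RootIn Q (omegaGL Q) := by
  intro u v h
  obtain ⟨g, hg, hx⟩ := Cfsg.Agent.Lib.Helper86.OE.exists_eichler hQ hι u v h.qu h.puv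
  refine ⟨g, hg, fun x => ?_⟩
  rw [hx, h.qv, zero_mul, zero_smul, sub_zero]
  rfl

theorem RootIn.mono {M N : Subgroup (GL ι F)} (h : RootIn Q M) (hMN : M ≤ N) : RootIn Q N := by
  intro u v huv
  obtain ⟨g, hg, hx⟩ := h u v huv
  exact ⟨g, hMN hg, hx⟩

theorem omega_not_le_of_not_rootIn [Fintype F] (hQ : IsNondegenerateQuadraticForm Q)
    (hι : 5 ≤ Fintype.card ι) {M : Subgroup (GL ι F)} (h : ¬ RootIn Q M) : ¬ omegaGL Q ≤ M :=
  fun hle => h ((rootIn_omega hQ hι).mono hle)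

theorem not_rootIn_tensor [Fintype F] (hQ : IsNondegenerateQuadraticForm Q)
    (hι : 7 ≤ Fintype.card ι) {a b : ℕ} (ha : 2 ≤ a) (hb : 2 ≤ b) (e : ι ≃ Fin a × Fin b)
    (P : GL ι F) : ¬ RootIn Q (tensorProductSubgroup a b e P) :=
  not_rootIn_tensor_aux2 (fun X hX => scalar_of_commute_root hQ hι X hX) hι ha hb e P

theorem not_rootIn_decomp_big [Fintype F] (hQ : IsNondegenerateQuadraticForm Q)
    (hι : 7 ≤ Fintype.card ι) {t m : ℕ} (hm : 3 ≤ m) (D : Fin t → Submodule F (ι → F))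
    (hD : IsMDecomposition m D) : ¬ RootIn Q (decompositionStabilizer D) :=
  not_rootIn_decomp_big_aux (fun W hW => irr_root hQ hι W hW) hm D hD

theorem not_rootIn_decomp_odd [Fintype F] (hQ : IsNondegenerateQuadraticForm Q)
    (hι : 7 ≤ Fintype.card ι) (h2 : (2 : F) ≠ 0) {t m : ℕ} (D : Fin t → Submodule F (ι → F))
    (hD : IsNondegenerateMDecomposition (QuadraticMap.polar Q) m D) :
    ¬ RootIn Q (decompositionStabilizer D) :=
  not_rootIn_decomp_odd_aux hQ (fun W hW => irr_root hQ hι W hW) h2 D hD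

theorem omega_not_le_tensor [Fintype F] (hQ : IsNondegenerateQuadraticForm Q)
    (hι : 7 ≤ Fintype.card ι) {a b : ℕ} (ha : 2 ≤ a) (hb : 2 ≤ b) (e : ι ≃ Fin a × Fin b)
    (P : GL ι F) : ¬ omegaGL Q ≤ tensorProductSubgroup a b e P :=
  omega_not_le_of_not_rootIn hQ (by omega) (not_rootIn_tensor hQ hι ha hb e P)

theorem omega_not_le_decomp_big [Fintype F] (hQ : IsNondegenerateQuadraticForm Q)
    (hι : 7 ≤ Fintype.card ι) {t m : ℕ} (hm : 3 ≤ m) (D : Fin t → Submodule F (ι → F))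
    (hD : IsMDecomposition m D) : ¬ omegaGL Q ≤ decompositionStabilizer D :=
  omega_not_le_of_not_rootIn hQ (by omega) (not_rootIn_decomp_big hQ hι hm D hD)

theorem omega_not_le_orthDecomp [Fintype F] (hQ : IsNondegenerateQuadraticForm Q)
    (hι : 7 ≤ Fintype.card ι) {t m : ℕ} (D : Fin t → Submodule F (ι → F))
    (hD : IsOrthogonalMDecomposition Q m D) : ¬ omegaGL Q ≤ decompositionStabilizer D := by
  refine omega_not_le_of_not_rootIn hQ (by omega) ?_
  by_cases h2 : (2 : F) = 0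
  · by_cases hm : 3 ≤ m
    · exact not_rootIn_decomp_big hQ hι hm D hD.decomp.decomp
    · have hc := Cfsg.Agent.Lib.Helper55.Asch.card_of_decomp D hD.decomp.decomp
      have hpos := hD.decomp.decomp.pos
      have h1 : m ≠ 1 := by
        intro h
        have i0 : Fin t := ⟨0, by have := hD.decomp.decomp.two_le; omega⟩
        exact two_le_of_nondegenerateOn hQ h2 (D i0) (hD.decomp.nondegenerate i0)
          (by rw [hD.decomp.decomp.finrank_eq, h])
      have hm2 : m = 2 := by omega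
      subst hm2
      exact not_rootIn_decomp_even hQ h2 (by omega) D hD
  · exact not_rootIn_decomp_odd hQ hι h2 D hD.decomp

end Cfsg.Agent.Lib.Helper90.OE
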