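import Cfsg.Agent.Lib.Helper57.OE.Defs
import Cfsg.Agent.Lib.Helper58.Asch.L0a
import Cfsg.Agent.Lib.Helper94.QuadWrap
import Cfsg.Agent.Lib.Helper96.OE.P5
import Cfsg.Agent.Lib.Helper55.Asch.DecCore
import Cfsg.Agent.Lib.Helper1.Sp.Z0

set_option autoImplicit false
set_option linter.unusedSectionVars false

/-! # Pieces YP2, YP3: decompositions into hyperbolic planes over fields with 2 or 3 elements -/

namespace Cfsg.Agent.Lib.Helper90.OE

open Cfsg Cfsg.Geo Matrix Cfsg.Agent.Lib.Helper13.Asch Cfsg.Agent.Lib.Helper90.Sp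
  Cfsg.Agent.Lib.Helper57.OE
open scoped Kronecker MatrixGroups

variable {ι : Type} [Fintype ι] [DecidableEq ι] {F : Type*} [Field F] {Q : (ι → F) → F}

/-- in a hyperbolic plane over a field with at most three elements the vectors of norm one lie on
one line -/
theorem plane_small_local [Fintype F] (hQ : IsNondegenerateQuadraticForm Q)
    (hq : Fintype.card F ≤ 3) (W : Submodule F (ι → F))
    (hnd : IsNondegenerateOn (QuadraticMap.polar Q) W)
    (hdim : Module.finrank F W = 2) (hplus : IsPlusTypeOn Q W) :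
    ∃ u ∈ W, Q u = 1 ∧ ∀ w ∈ W, Q w = 1 → w ∈ Submodule.span F {u} := by
  classical
  set Q' := Cfsg.Agent.Lib.Helper94.quadOf Q hQ with hQ'
  have hQa : ∀ x, Q x = Q' x := fun x => rfl
  obtain ⟨U, hUW, hU0, hUd⟩ := hplus
  have hU1 : Module.finrank F U = 1 := by omega
  have hUne : U ≠ ⊥ := by
    intro h
    rw [h, finrank_bot] at hU1
    omega
  obtain ⟨e, heU, he0⟩ := Submodule.exists_mem_ne_zero_of_ne_bot hUne
  have heW : e ∈ W := hUW heU
  have hQe : Q' e = 0 := hU0 e heU
  obtain ⟨x, hxW, hx⟩ := (hnd e heW he0).2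
  have hx' : QuadraticMap.polar Q' e x ≠ 0 := hx
  set s : F := (QuadraticMap.polar Q' e x)⁻¹ with hs
  have hs1 : s * QuadraticMap.polar Q' e x = 1 := inv_mul_cancel₀ hx'
  set f : ι → F := s • x - (s * s * Q' x) • e with hf
  have hfW : f ∈ W := W.sub_mem (W.smul_mem _ hxW) (W.smul_mem _ heW)
  have hee : QuadraticMap.polar Q' e e = 0 := by
    rw [QuadraticMap.polar_self, hQe, smul_zero]
  have hef : QuadraticMap.polar Q' e f = 1 := by
    rw [hf, QuadraticMap.polar_sub_right, QuadraticMap.polar_smul_right,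
      QuadraticMap.polar_smul_right, hee, smul_eq_mul, smul_eq_mul, mul_zero, sub_zero, hs1]
  have hQf : Q' f = 0 := by
    have h1 : f = s • x + (-(s * s * Q' x)) • e := by rw [hf, neg_smul, sub_eq_add_neg]
    rw [h1, QuadraticMap.map_add (⇑Q'), QuadraticMap.map_smul, QuadraticMap.map_smul, hQe,
      QuadraticMap.polar_smul_left, QuadraticMap.polar_smul_right, QuadraticMap.polar_comm Q' x e]
    simp only [smul_eq_mul, mul_zero, add_zero]
    linear_combination (-(s * s * Q' x)) * hs1
  have hff : QuadraticMap.polar Q' f f = 0 := by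
    rw [QuadraticMap.polar_self, hQf, smul_zero]
  have hQab : ∀ a b : F, Q' (a • e + b • f) = a * b := by
    intro a b
    rw [QuadraticMap.map_add (⇑Q'), QuadraticMap.map_smul, QuadraticMap.map_smul, hQe, hQf,
      QuadraticMap.polar_smul_left, QuadraticMap.polar_smul_right, hef]
    simp
  have hli : LinearIndependent F ![e, f] := by
    rw [LinearIndependent.pair_iff]
    intro a b hab
    have h1 : QuadraticMap.polar Q' e (a • e + b • f) = b := by
      rw [QuadraticMap.polar_add_right, QuadraticMap.polar_smul_right,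
        QuadraticMap.polar_smul_right, hee, hef]
      simp
    have h2 : QuadraticMap.polar Q' (a • e + b • f) f = a := by
      rw [QuadraticMap.polar_add_left, QuadraticMap.polar_smul_left,
        QuadraticMap.polar_smul_left, hff, hef]
      simp
    rw [hab] at h1 h2
    simp only [QuadraticMap.polar_zero_right, QuadraticMap.polar_zero_left] at h1 h2
    exact ⟨h2.symm, h1.symm⟩
  have hspan : Submodule.span F {e, f} = W := by
    apply Submodule.eq_of_le_of_finrank_eq
    · rw [Submodule.span_le]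
      rintro z (rfl | rfl)
      · exact heW
      · exact hfW
    · have := finrank_span_eq_card hli
      rw [Fintype.card_fin] at this
      have h2 : Set.range ![e, f] = {e, f} := by simp [Set.pair_comm]
      rw [h2] at this
      rw [hdim, this]
  have key : ∀ w ∈ W, Q' w = 1 → w ∈ Submodule.span F {e + f} := by
    intro w hw hw1
    rw [← hspan, Submodule.mem_span_pair] at hw
    obtain ⟨a, b, rfl⟩ := hw
    rw [hQab] at hw1
    have ha : a ≠ 0 := by rintro rfl; simp at hw1
    have haa := Cfsg.Agent.Lib.Helper96.OE.sq_eq_one_of_card_le hq ha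
    have hab : b = a := by
      have : a * b = a * a := by rw [hw1, haa]
      exact mul_left_cancel₀ ha this
    rw [hab, ← smul_add]
    exact Submodule.smul_mem _ _ (Submodule.mem_span_singleton_self _)
  have hQv : Q' (e + f) = 1 := by
    have := hQab 1 1
    simpa using this
  exact ⟨e + f, W.add_mem heW hfW, hQv, key⟩

/-- common set-up: a norm one vector in each block, moved by `H` into the line of another one -/
theorem planes_small_setup [Fintype F] (hq : Fintype.card F ≤ 3)
    (hQ : IsNondegenerateQuadraticForm Q)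
    {H : Subgroup (GL ι F)} (hH : FixesQuadForm (matrixSet H) Q) {t : ℕ}
    (D : Fin t → Submodule F (ι → F)) (hD : IsOrthogonalMDecomposition Q 2 D)
    (hplus : ∀ i, IsPlusTypeOn Q (D i)) (hHD : H ≤ decompositionStabilizer D) :
    ∃ u : Fin t → (ι → F), (∀ i, u i ∈ D i) ∧ (∀ i, Q (u i) = 1) ∧
      ∀ h ∈ H, ∃ σ : Equiv.Perm (Fin t), ∀ i,
        (h : Matrix ι ι F) *ᵥ u i ∈ Submodule.span F {u (σ i)} := by
  choose u hu1 hu2 hu3 using fun i => plane_small_local hQ hq (D i) (hD.decomp.nondegenerate i)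
    (hD.decomp.decomp.finrank_eq i) (hplus i)
  refine ⟨u, hu1, hu2, fun h hh => ?_⟩
  obtain ⟨σ, hσ⟩ := hHD hh
  refine ⟨σ, fun i => hu3 (σ i) _ ?_ ?_⟩
  · rw [← hσ i]
    exact ⟨u i, hu1 i, by simp⟩
  · rw [hH _ ⟨h, hh, rfl⟩, hu2]

/-- YP3 -/
theorem planes_plus_three [Fintype F] (hq : Fintype.card F = 3)
    (hQ : IsNondegenerateQuadraticForm Q)
    {H : Subgroup (GL ι F)} (hH : FixesQuadForm (matrixSet H) Q) {t : ℕ}
    (D : Fin t → Submodule F (ι → F)) (hD : IsOrthogonalMDecomposition Q 2 D)
    (hplus : ∀ i, IsPlusTypeOn Q (D i)) (hHD : H ≤ decompositionStabilizer D) :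
    RNd Q H := by
  classical
  obtain ⟨u, hu1, hu2, hu3⟩ := planes_small_setup (by omega) hQ hH D hD hplus hHD
  set Q' := Cfsg.Agent.Lib.Helper94.quadOf Q hQ with hQ'
  have hQa : ∀ x, Q x = Q' x := fun x => rfl
  have h2 : (2 : F) ≠ 0 := by
    intro h
    have hodd : Odd (Fintype.card F) := by rw [hq]; decide
    exact (Cfsg.Agent.Lib.Helper1.Sp.two_eq_zero_iff.1 h) hodd
  have ht := hD.decomp.decomp.two_le
  have hcard := Cfsg.Agent.Lib.Helper55.Asch.card_of_decomp D hD.decomp.decomp
  have i0 : Fin t := ⟨0, by omega⟩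
  have hpol : ∀ i j, QuadraticMap.polar Q' (u i) (u j) = if i = j then 2 else 0 := by
    intro i j
    split_ifs with hij
    · subst hij
      rw [QuadraticMap.polar_self, ← hQa, hu2]
      simp
    · exact hD.decomp.orthogonal i j hij _ (hu1 i) _ (hu1 j)
  refine ⟨Submodule.span F (Set.range u), ?_, ?_, ?_, ?_⟩
  · intro h
    have h1 : u i0 ∈ Submodule.span F (Set.range u) := Submodule.subset_span ⟨i0, rfl⟩
    rw [h, Submodule.mem_bot] at h1
    have h3 := hu2 i0
    rw [h1, hQa, QuadraticMap.map_zero] at h3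
    exact zero_ne_one h3
  · intro h
    have h1 : Module.finrank F (Submodule.span F (Set.range u)) ≤ Fintype.card (Fin t) :=
      finrank_range_le_card u
    rw [h, finrank_top, Module.finrank_fintype_fun_eq_card, Fintype.card_fin, ← hcard] at h1
    omega
  · have key : ∀ w ∈ Submodule.span F (Set.range u), w ≠ 0 →
        ∃ j, QuadraticMap.polar Q' (u j) w ≠ 0 := by
      intro w hw hw0
      obtain ⟨a, rfl⟩ := (Submodule.mem_span_range_iff_exists_fun F).1 hw
      have hex : ∃ j, a j ≠ 0 := by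
        by_contra hcon
        push Not at hcon
        exact hw0 (by simp [hcon])
      obtain ⟨j, hj⟩ := hex
      refine ⟨j, ?_⟩
      have : QuadraticMap.polar Q' (u j) (∑ i, a i • u i) = a j * 2 := by
        have hlin : QuadraticMap.polar Q' (u j) (∑ i, a i • u i)
            = ∑ i, a i * QuadraticMap.polar Q' (u j) (u i) := by
          have := map_sum (QuadraticMap.polarBilin Q' (u j)) (fun i => a i • u i) Finset.univ
          simp only [QuadraticMap.polarBilin_apply_apply, QuadraticMap.polar_smul_right,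
            smul_eq_mul] at this
          exact this
        rw [hlin]
        simp [hpol]
      rw [this]
      exact mul_ne_zero hj h2
    intro w hw hw0
    obtain ⟨j, hj⟩ := key w hw hw0
    refine ⟨⟨u j, Submodule.subset_span ⟨j, rfl⟩, hj⟩, ⟨u j, Submodule.subset_span ⟨j, rfl⟩, ?_⟩⟩
    have : QuadraticMap.polar Q' w (u j) ≠ 0 := by rwa [QuadraticMap.polar_comm]
    exact this
  · apply Cfsg.Agent.Lib.Helper58.Asch.le_subspaceStabilizer
    rintro _ ⟨h, hh, rfl⟩
    obtain ⟨σ, hσ⟩ := hu3 h hh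
    rw [Submodule.map_span, Submodule.span_le]
    rintro _ ⟨_, ⟨i, rfl⟩, rfl⟩
    rw [Matrix.toLin'_apply]
    exact Submodule.span_mono (by rintro _ rfl; exact ⟨σ i, rfl⟩) (hσ i)

/-- YP2 -/
theorem planes_plus_two [Fintype F] (hq : Fintype.card F = 2) (hQ : IsNondegenerateQuadraticForm Q)
    {H : Subgroup (GL ι F)} (hH : FixesQuadForm (matrixSet H) Q) {t : ℕ}
    (D : Fin t → Submodule F (ι → F)) (hD : IsOrthogonalMDecomposition Q 2 D)
    (hplus : ∀ i, IsPlusTypeOn Q (D i)) (hHD : H ≤ decompositionStabilizer D) :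
    RSing Q H ∨ RVec Q H := by
  classical
  obtain ⟨u, hu1, hu2, hu3⟩ := planes_small_setup (by omega) hQ hH D hD hplus hHD
  set Q' := Cfsg.Agent.Lib.Helper94.quadOf Q hQ with hQ'
  have hQa : ∀ x, Q x = Q' x := fun x => rfl
  have ht := hD.decomp.decomp.two_le
  have i0 : Fin t := ⟨0, by omega⟩
  have hone : ∀ c : F, c ≠ 0 → c = 1 := by
    intro c hc
    have h1 := FiniteField.pow_card_sub_one_eq_one c hc
    rw [hq] at h1
    simpa using h1
  have hfix : ∀ h ∈ H, (h : Matrix ι ι F) *ᵥ (∑ i, u i) = ∑ i, u i := by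
    intro h hh
    obtain ⟨σ, hσ⟩ := hu3 h hh
    have h1 : ∀ i, (h : Matrix ι ι F) *ᵥ u i = u (σ i) := by
      intro i
      obtain ⟨c, hc⟩ := Submodule.mem_span_singleton.1 (hσ i)
      have hc0 : c ≠ 0 := by
        rintro rfl
        have h3 : Q ((h : Matrix ι ι F) *ᵥ u i) = 1 := by rw [hH _ ⟨h, hh, rfl⟩, hu2]
        rw [← hc, zero_smul, hQa, QuadraticMap.map_zero] at h3
        exact zero_ne_one h3
      rw [← hc, hone c hc0, one_smul]
    rw [Matrix.mulVec_sum]
    simp only [h1]
    exact Equiv.sum_comp σ u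
  have hv0 : (∑ i, u i) ≠ 0 := by
    intro h0
    have hu0 : u i0 ≠ 0 := by
      intro h
      have h3 := hu2 i0
      rw [h, hQa, QuadraticMap.map_zero] at h3
      exact zero_ne_one h3
    obtain ⟨x, hx, hx1⟩ := (hD.decomp.nondegenerate i0 (u i0) (hu1 i0) hu0).1
    have hlin : QuadraticMap.polar Q' x (∑ i, u i) = ∑ i, QuadraticMap.polar Q' x (u i) := by
      have := map_sum (QuadraticMap.polarBilin Q' x) (fun i => u i) Finset.univ
      simp only [QuadraticMap.polarBilin_apply_apply] at this
      exact this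
    rw [h0, QuadraticMap.polar_zero_right, Finset.sum_eq_single i0] at hlin
    · exact hx1 hlin.symm
    · intro j _ hj
      exact hD.decomp.orthogonal i0 j (Ne.symm hj) _ hx _ (hu1 j)
    · intro h
      exact (h (Finset.mem_univ _)).elim
  have hstab : H ≤ subspaceStabilizer (Submodule.span F {∑ i, u i}) := by
    apply Cfsg.Agent.Lib.Helper58.Asch.le_subspaceStabilizer
    rintro _ ⟨h, hh, rfl⟩
    rw [Submodule.map_span, Set.image_singleton, Matrix.toLin'_apply, hfix h hh]
  by_cases hv : Q (∑ i, u i) = 0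
  · left
    refine ⟨Submodule.span F {∑ i, u i}, ?_, ?_, hstab⟩
    · intro h
      exact hv0 ((Submodule.span_singleton_eq_bot).1 h)
    · intro w hw
      obtain ⟨c, rfl⟩ := Submodule.mem_span_singleton.1 hw
      rw [hQ.smul, hv, mul_zero]
  · right
    exact ⟨_, hv, hstab⟩

end Cfsg.Agent.Lib.Helper90.OE
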