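import Cfsg.Agent.Lib.Helper90.OE.Defs10
import Cfsg.Agent.Lib.Helper90.OE.NotLe
import Cfsg.Agent.Lib.Helper90.OE.YP23
import Cfsg.Agent.Lib.Helper12.OE.ZR
import Cfsg.Agent.Lib.Helper72.OE.E1
import Cfsg.Agent.Lib.Helper70.OE.P2
import Cfsg.Agent.Lib.Helper98.OE.P3c
import Cfsg.Agent.Lib.Helper96.OE.P5
import Cfsg.Agent.Lib.Helper37.OE.P6a
import Cfsg.Agent.Lib.Helper37.OE.P6b
import Cfsg.Agent.Lib.Helper37.OE.P6c
import Cfsg.Agent.Lib.Helper86.OE.N1
import Cfsg.Agent.Lib.Helper86.OE.N2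
import Cfsg.Agent.Lib.Helper86.OE.N3
import Cfsg.Agent.Lib.Helper96.OE.N4
import Cfsg.Agent.Lib.Helper35.OE.N5
import Cfsg.Agent.Lib.Helper51.OE.F5
import Cfsg.Agent.Lib.Helper81.OE.YP4a
import Cfsg.Agent.Lib.Helper84.OE.YBF
import Cfsg.Agent.Lib.Helper81.OE.YF1
import Cfsg.Agent.Lib.Helper81.OE.YP4
import Cfsg.Agent.Lib.Helper22.OE.YM3
import Cfsg.Agent.Lib.Helper21.O10.Bridge

set_option autoImplicit false
set_option linter.unusedSectionVars false

/-! # The rows S5850 (Omega10-) and S5847 (Omega10+): assemblies -/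

namespace Cfsg.Agent.Lib.Helper90.OE

open Cfsg Cfsg.Geo Matrix Cfsg.Agent.Lib.Helper13.Asch Cfsg.Agent.Lib.Helper90.Sp
open Cfsg.Agent.Lib.Helper57.OE Cfsg.Agent.Lib.Helper1.Sp
open Cfsg.Agent.Lib.Helper37.OE Cfsg.Agent.Lib.Helper96.OE Cfsg.Agent.Lib.Helper98.OE
open Cfsg.Agent.Lib.Helper86.OE Cfsg.Agent.Lib.Helper35.OE Cfsg.Agent.Lib.Helper72.OE
open Cfsg.Agent.Lib.Helper70.OE Cfsg.Agent.Lib.Helper51.OE Cfsg.Agent.Lib.Helper12.OE
open Cfsg.Agent.Lib.Helper21.O10.Bridge
open scoped Kronecker MatrixGroups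

variable {ι : Type} [Fintype ι] [DecidableEq ι] {F : Type*} [Field F] {Q : (ι → F) → F}

/-! ## INTERFACE 4: small fields (pieces Y* of helper99's farm) -/

theorem two_ne_zero_of_odd_card [Fintype F] (h : Odd (Fintype.card F)) : (2 : F) ≠ 0 :=
  fun h2 => (two_eq_zero_iff.1 h2) h

/-- Yd: q = 5, plus planes -/
theorem rframe_of_plus_planes_five [Fintype F] (hq : Fintype.card F = 5)
    (hQ : IsNondegenerateQuadraticForm Q) {H : Subgroup (GL ι F)}
    (hH : FixesQuadForm (matrixSet H) Q) {t : ℕ} (D : Fin t → Submodule F (ι → F))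
    (hD : IsOrthogonalMDecomposition Q 2 D) (hplus : ∀ i, IsPlusTypeOn Q (D i))
    (hle : H ≤ decompositionStabilizer D) : RFrame Q H := by
  have i0 : Fin t := ⟨0, by have := hD.decomp.decomp.two_le; omega⟩
  obtain ⟨b, hb, horth, hall⟩ := Cfsg.Agent.Lib.Helper81.OE.plane_plus_five_local hq hQ (D i0)
    (hD.decomp.nondegenerate i0) (hD.decomp.decomp.finrank_eq i0) (hplus i0)
  obtain ⟨D', hD', hle'⟩ := Cfsg.Agent.Lib.Helper84.OE.lines_of_block_frame
    (two_ne_zero_of_odd_card (by rw [hq]; decide)) hQ hH D hD hle rfl i0 1 one_ne_zero b hb horth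
    hall
  exact ⟨_, D', hD', hle'⟩

/-- Ye: q = 3, minus planes -/
theorem rframe_of_minus_planes_three [Fintype F] (hq : Fintype.card F = 3)
    (hQ : IsNondegenerateQuadraticForm Q) {H : Subgroup (GL ι F)}
    (hH : FixesQuadForm (matrixSet H) Q) {t : ℕ} (D : Fin t → Submodule F (ι → F))
    (hD : IsOrthogonalMDecomposition Q 2 D) (hminus : ∀ i, ¬ IsPlusTypeOn Q (D i))
    (hle : H ≤ decompositionStabilizer D) : RFrame Q H := by
  have i0 : Fin t := ⟨0, by have := hD.decomp.decomp.two_le; omega⟩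
  obtain ⟨b, hb, horth, hall⟩ := Cfsg.Agent.Lib.Helper22.OE.plane_minus_three_local hq hQ (D i0)
    (hD.decomp.nondegenerate i0) (hD.decomp.decomp.finrank_eq i0) (hminus i0)
  obtain ⟨D', hD', hle'⟩ := Cfsg.Agent.Lib.Helper84.OE.lines_of_block_frame
    (two_ne_zero_of_odd_card (by rw [hq]; decide)) hQ hH D hD hle rfl i0 1 one_ne_zero b hb horth
    hall
  exact ⟨_, D', hD', hle'⟩

/-- Yf: frames over a non-prime field -/
theorem rsub_of_frame [Fintype F] (hq : ¬ (Fintype.card F).Prime)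
    (hQ : IsNondegenerateQuadraticForm Q) {H : Subgroup (GL ι F)}
    (hH : FixesQuadForm (matrixSet H) Q) (h : RFrame Q H) : RSub Q H := by
  obtain ⟨t, D, hD, hle⟩ := h
  exact Cfsg.Agent.Lib.Helper81.OE.rsub_of_lines hQ hH D hD hle hq

/-! ## assemblies -/

section rows

variable {F : Type*} [Field F] [Fintype F] {Q : (Fin 10 → F) → F}
  {H : Subgroup (Matrix.GeneralLinearGroup (Fin 10) F)}

theorem ne_bot_top_of_finrank' {W : Submodule F (Fin 10 → F)} (h0 : 0 < Module.finrank F W)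
    (h1 : Module.finrank F W < 10) : W ≠ ⊥ ∧ W ≠ ⊤ := by
  constructor
  · rintro rfl
    simp at h0
  · rintro rfl
    simp at h1

theorem card_mod_four (hodd : Odd (Fintype.card F)) :
    Fintype.card F % 4 = 1 ∨ Fintype.card F % 4 = 3 := by
  obtain ⟨m, hm⟩ := hodd
  omega

/-- the outcome of the subspace cases, common to both rows -/
def NdOut10 (Q : (Fin 10 → F) → F) (H : Subgroup (Matrix.GeneralLinearGroup (Fin 10) F)) : Prop :=
  (Odd (Fintype.card F) ∧ ∃ W : Submodule F (Fin 10 → F), W ≠ ⊥ ∧ W ≠ ⊤ ∧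
    Odd (Module.finrank F W) ∧ 2 * Module.finrank F W ≠ 10 ∧
    IsNondegenerateOn (QuadraticMap.polar Q) W ∧ H = subspaceStabilizer W ⊓ omegaGL Q) ∨
  (∃ W : Submodule F (Fin 10 → F), Module.finrank F W = 2 ∧
    IsNondegenerateOn (QuadraticMap.polar Q) W ∧
    ¬ IsPlusTypeOn Q W ∧ H = subspaceStabilizer W ⊓ omegaGL Q) ∨
  (4 ≤ Fintype.card F ∧ ∃ W : Submodule F (Fin 10 → F), Module.finrank F W = 2 ∧
    IsNondegenerateOn (QuadraticMap.polar Q) W ∧ IsPlusTypeOn Q W ∧
    H = subspaceStabilizer W ⊓ omegaGL Q) ∨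
  (∃ W : Submodule F (Fin 10 → F), Module.finrank F W = 4 ∧
    IsNondegenerateOn (QuadraticMap.polar Q) W ∧ H = subspaceStabilizer W ⊓ omegaGL Q) ∨
  (¬ Odd (Fintype.card F) ∧ ∃ v : Fin 10 → F, Q v ≠ 0 ∧
    H = subspaceStabilizer (Submodule.span F {v}) ⊓ omegaGL Q) ∨
  (Odd (Fintype.card F) ∧ ∃ D : Fin 2 → Submodule F (Fin 10 → F),
    IsNondegenerateMDecomposition (QuadraticMap.polar Q) 5 D ∧
    H = decompositionStabilizer D ⊓ omegaGL Q)

theorem vec_out10 (hQ : IsNondegenerateQuadraticForm Q) (hH : IsMaximalIn (omegaGL Q) H)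
    (h : RVec Q H) : NdOut10 Q H := by
  obtain ⟨v, hv, hle⟩ := h
  have heq := eq_inf_of_maximal hH hle (not_le_vec hQ (by simp) v hv)
  by_cases hodd : Odd (Fintype.card F)
  · have h2 : (2 : F) ≠ 0 := fun h => (two_eq_zero_iff.1 h) hodd
    obtain ⟨hnd, hfr⟩ := span_nondeg h2 hQ v hv
    obtain ⟨h0, h1⟩ := ne_bot_top_of_finrank' (W := Submodule.span F {v}) (by omega) (by omega)
    exact Or.inl ⟨hodd, _, h0, h1, by rw [hfr]; exact odd_one, by omega, hnd, heq⟩
  · exact Or.inr (Or.inr (Or.inr (Or.inr (Or.inl ⟨hodd, v, hv, heq⟩))))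

theorem nd_out10 (hQ : IsNondegenerateQuadraticForm Q) (hH : IsMaximalIn (omegaGL Q) H)
    (h : RNd Q H) : NdOut10 Q H := by
  have hfix := fixesQuad_of_le_omega hH.1.le
  obtain ⟨W₀, h0, h1, hnd₀, hle₀⟩ := h
  obtain ⟨W, hpos, hhalf, hnd, hle⟩ : ∃ W : Submodule F (Fin 10 → F), 0 < Module.finrank F W ∧
      2 * Module.finrank F W ≤ 10 ∧ IsNondegenerateOn (QuadraticMap.polar Q) W ∧
      H ≤ subspaceStabilizer W := by
    obtain ⟨W', hnd', hle', hsum⟩ := compl_nondeg hQ hfix W₀ hnd₀ hle₀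
    have hp0 : 0 < Module.finrank F W₀ := Module.finrank_pos_iff.2
      (Submodule.nontrivial_iff_ne_bot.2 h0)
    have hlt : Module.finrank F W₀ < 10 := by
      have := Submodule.finrank_lt h1
      simpa using this
    simp only [Fintype.card_fin] at hsum
    by_cases hc : 2 * Module.finrank F W₀ ≤ 10
    · exact ⟨W₀, hp0, hc, hnd₀, hle₀⟩
    · exact ⟨W', by omega, by omega, hnd', hle'⟩
  obtain ⟨hb, ht⟩ := ne_bot_top_of_finrank' hpos (by omega)
  have heq := eq_inf_of_maximal hH hle (not_le_nd hQ (by simp) W hb ht hnd)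
  rcases Nat.even_or_odd (Module.finrank F W) with hev | hodd
  · obtain ⟨m, hm⟩ := hev
    by_cases h4 : 4 ≤ Module.finrank F W
    · exact Or.inr (Or.inr (Or.inr (Or.inl ⟨W, by omega, hnd, heq⟩)))
    · have h2 : Module.finrank F W = 2 := by omega
      by_cases hplus : IsPlusTypeOn Q W
      · by_cases hq : 4 ≤ Fintype.card F
        · exact Or.inr (Or.inr (Or.inl ⟨hq, W, h2, hnd, hplus, heq⟩))
        · exact vec_out10 hQ hH (plus_plane_small hQ (by omega) hfix W hnd h2 hplus hle)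
      · exact Or.inr (Or.inl ⟨W, h2, hnd, hplus, heq⟩)
  · have hq := odd_card_of_odd_nondeg hQ W hnd hodd
    by_cases h5 : Module.finrank F W = 5
    · obtain ⟨D, hD, hle'⟩ := pair_of_nondeg_half hQ hfix W (by norm_num) h5 (by simp) hnd hle
      exact Or.inr (Or.inr (Or.inr (Or.inr (Or.inr ⟨hq, D, hD,
        eq_inf_of_maximal hH hle' (omega_not_le_decomp_big hQ (by simp) (by norm_num) D hD.decomp)⟩))))
    · exact Or.inl ⟨hq, W, hb, ht, hodd, by omega, hnd, heq⟩

/-! ### the minus row -/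

theorem halves_m (hQ : IsNondegenerateQuadraticForm Q) (hminus : ¬ IsPlusTypeOn Q ⊤)
    (hodd : Odd (Fintype.card F)) (D : Fin 2 → Submodule F (Fin 10 → F))
    (hD : IsNondegenerateMDecomposition (QuadraticMap.polar Q) 5 D)
    (heq : H = decompositionStabilizer D ⊓ omegaGL Q) : Goal10m Q H := by
  have key := plus_iff_halves (by simp) hQ D hD
  by_cases hiso : AreIsometricFor Q (D 0) (D 1)
  · refine Goal10m.mk9 ⟨?_, D, orthDecomp_of_isometric D hD hiso, heq⟩
    rcases card_mod_four hodd with h | h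
    · exact (hminus (key.2 ⟨fun _ => h, fun _ => hiso⟩)).elim
    · exact h
  · refine Goal10m.mk10 ⟨?_, D, hD, hiso, heq⟩
    by_contra h
    exact hminus (key.2 ⟨fun h' => (hiso h').elim, fun h' => (h h').elim⟩)

theorem ndOut_m (hQ : IsNondegenerateQuadraticForm Q) (hminus : ¬ IsPlusTypeOn Q ⊤)
    (h : NdOut10 Q H) : Goal10m Q H := by
  rcases h with h | h | h | h | h | ⟨hodd, D, hD, heq⟩
  · exact Goal10m.mk2 h
  · exact Goal10m.mk3 h
  · exact Goal10m.mk4 h
  · exact Goal10m.mk5 h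
  · exact Goal10m.mk6 h
  · exact halves_m hQ hminus hodd D hD heq

theorem sub_m (hQ : IsNondegenerateQuadraticForm Q) (hminus : ¬ IsPlusTypeOn Q ⊤)
    (hH : IsMaximalIn (omegaGL Q) H) (h : RSub Q H) : Goal10m Q H := by
  obtain ⟨F₀, r, P, ζ, hr, hc, hζ, hP, hle⟩ := h
  refine Goal10m.mk13 ⟨F₀, r, P, ζ, hr, ?_, hc, hζ, hP,
    eq_inf_of_maximal hH hle (not_le_subfield hQ (by simp) F₀ r hr hc P ζ hζ hP)⟩
  rcases hr.eq_two_or_odd' with rfl | h
  · exact (hminus (plus_of_index_two hQ (by simp; decide) F₀ hc P ζ hζ hP)).elim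
  · exact h

theorem odd_of_frame (hQ : IsNondegenerateQuadraticForm Q) {t : ℕ}
    (D : Fin t → Submodule F (Fin 10 → F)) (hD : IsOrthogonalMDecomposition Q 1 D) :
    Odd (Fintype.card F) := by
  have i0 : Fin t := ⟨0, by have := hD.decomp.decomp.two_le; omega⟩
  exact odd_card_of_odd_nondeg hQ (D i0) (hD.decomp.nondegenerate i0)
    (by rw [hD.decomp.decomp.finrank_eq]; exact odd_one)

theorem frame_m (hQ : IsNondegenerateQuadraticForm Q) (hminus : ¬ IsPlusTypeOn Q ⊤)
    (hH : IsMaximalIn (omegaGL Q) H) (h : RFrame Q H) : Goal10m Q H := by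
  have hfix := fixesQuad_of_le_omega hH.1.le
  by_cases hp : (Fintype.card F).Prime
  · obtain ⟨t, D, hD, hle⟩ := h
    have h1 := Cfsg.Agent.Lib.Helper55.Asch.card_of_decomp D hD.decomp.decomp
    simp only [Fintype.card_fin, mul_one] at h1
    subst h1
    refine Goal10m.mk7 ⟨⟨_, hp, rfl, ?_⟩, D, hD,
      eq_inf_of_maximal hH hle (omega_not_le_orthDecomp hQ (by simp) D hD)⟩
    rcases card_mod_four (odd_of_frame hQ D hD) with h | h
    · exact (hminus ((plus_iff_frame (by simp) hQ D hD).2 h)).elim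
    · exact h
  · exact sub_m hQ hminus hH (rsub_of_frame hp hQ hfix h)

theorem dec_m (hQ : IsNondegenerateQuadraticForm Q) (hminus : ¬ IsPlusTypeOn Q ⊤)
    (hH : IsMaximalIn (omegaGL Q) H) (h : RDec Q H) : Goal10m Q H := by
  have hfix := fixesQuad_of_le_omega hH.1.le
  obtain ⟨t, k, D, hD, hle⟩ := h
  have h1 := Cfsg.Agent.Lib.Helper55.Asch.card_of_decomp D hD.decomp.decomp
  simp only [Fintype.card_fin] at h1
  have h2 := hD.decomp.decomp.two_le
  have heq := eq_inf_of_maximal hH hle (omega_not_le_orthDecomp hQ (by simp) D hD)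
  have hk : k = 1 ∨ k = 2 ∨ k = 5 := by
    have hk10 : k ∣ 10 := ⟨t, by rw [← h1, mul_comm]⟩
    have : k ≤ 10 := Nat.le_of_dvd (by norm_num) hk10
    interval_cases k <;> omega
  rcases hk with rfl | rfl | rfl
  · exact frame_m hQ hminus hH ⟨t, D, hD, hle⟩
  · have ht : t = 5 := by omega
    subst ht
    by_cases hq : Fintype.card F = 3
    · exact frame_m hQ hminus hH (rframe_of_minus_planes_three hq hQ hfix D hD
        (fun i hi => hminus (plus_of_plus_block hQ D hD i hi)) hle)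
    · exact Goal10m.mk8 ⟨hq, D, hD, heq⟩
  · have ht : t = 2 := by omega
    subst ht
    have hodd : Odd (Fintype.card F) := odd_card_of_odd_nondeg hQ (D 0) (hD.decomp.nondegenerate 0)
      (by rw [hD.decomp.decomp.finrank_eq]; decide)
    exact halves_m hQ hminus hodd D hD.decomp heq

theorem f2_m (hQ : IsNondegenerateQuadraticForm Q)
    (hH : IsMaximalIn (omegaGL Q) H) (hirr : ActsIrreducibly (matrixSet H)) (h : RF2 Q H) :
    Goal10m Q H := by
  have hfix := fixesQuad_of_le_omega hH.1.le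
  obtain ⟨K, hK, hadj, hle⟩ := h
  have heq := eq_inf_of_maximal hH hle (not_le_field hQ (by simp) Nat.prime_two K hK)
  by_cases hsa : IsSelfAdjointFor (QuadraticMap.polar Q) K
  · exact Goal10m.mk11 ⟨odd_of_selfadjoint_field (by simp) hQ hfix hirr K hK hsa hle, K, hK, hsa, heq⟩
  · exact Goal10m.mk12 ⟨K, hK, hadj, hsa,
      similitude_of_not_selfadjoint (by simp) hQ hfix hirr K hK hadj hsa hle, heq⟩

theorem sing_m (hQ : IsNondegenerateQuadraticForm Q) (hH : IsMaximalIn (omegaGL Q) H)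
    (h : RSing Q H) : Goal10m Q H := by
  obtain ⟨W, h0, hW, hle⟩ := h
  exact Goal10m.mk1 ⟨W, h0, hW, eq_inf_of_maximal hH hle (not_le_sing hQ (by simp) W h0 hW)⟩

theorem plus_of_rpair (h : RPair Q H) : IsPlusTypeOn Q ⊤ := by
  obtain ⟨k, D, hD, hts, -⟩ := h
  have h1 := Cfsg.Agent.Lib.Helper55.Asch.card_of_decomp D hD
  refine ⟨D 0, le_top, hts 0, ?_⟩
  rw [hD.finrank_eq, finrank_top, Module.finrank_fintype_fun_eq_card, ← h1]

theorem row10m (hQ : IsNondegenerateQuadraticForm Q) (hminus : ¬ IsPlusTypeOn Q ⊤)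
    (hH : IsMaximalIn (omegaGL Q) H) : Goal10m Q H := by
  have hfix := fixesQuad_of_le_omega hH.1.le
  by_cases hirr : ActsIrreducibly (matrixSet H)
  · rcases core10 (by simp) hQ H hfix with h | h | ⟨-, h⟩ | h | h | h | h | h
    · exact sing_m hQ hH h
    · exact ndOut_m hQ hminus (nd_out10 hQ hH h)
    · exact ndOut_m hQ hminus (vec_out10 hQ hH h)
    · exact dec_m hQ hminus hH h
    · exact (hminus (plus_of_rpair h)).elim
    · exact f2_m hQ hH hirr h
    · exact sub_m hQ hminus hH h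
    · exact Goal10m.mk14 h
  · rcases o_reducible hQ hfix hirr with h | h | ⟨-, h⟩
    · exact sing_m hQ hH h
    · exact ndOut_m hQ hminus (nd_out10 hQ hH h)
    · exact ndOut_m hQ hminus (vec_out10 hQ hH h)

/-! ### the plus row -/

theorem halves_p (hQ : IsNondegenerateQuadraticForm Q) (hplus : IsPlusTypeOn Q ⊤)
    (hodd : Odd (Fintype.card F)) (D : Fin 2 → Submodule F (Fin 10 → F))
    (hD : IsNondegenerateMDecomposition (QuadraticMap.polar Q) 5 D)
    (heq : H = decompositionStabilizer D ⊓ omegaGL Q) : Goal10p Q H := by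
  have key := (plus_iff_halves (by simp) hQ D hD).1 hplus
  by_cases hiso : AreIsometricFor Q (D 0) (D 1)
  · exact Goal10p.mk9 ⟨key.1 hiso, D, orthDecomp_of_isometric D hD hiso, heq⟩
  · refine Goal10p.mk10 ⟨?_, D, hD, hiso, heq⟩
    rcases card_mod_four hodd with h | h
    · exact (hiso (key.2 h)).elim
    · exact h

theorem ndOut_p (hQ : IsNondegenerateQuadraticForm Q) (hplus : IsPlusTypeOn Q ⊤)
    (h : NdOut10 Q H) : Goal10p Q H := by
  rcases h with h | h | h | h | h | ⟨hodd, D, hD, heq⟩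
  · exact Goal10p.mk2 h
  · exact Goal10p.mk3 h
  · exact Goal10p.mk4 h
  · exact Goal10p.mk5 h
  · exact Goal10p.mk6 h
  · exact halves_p hQ hplus hodd D hD heq

theorem sub_p (hQ : IsNondegenerateQuadraticForm Q)
    (hH : IsMaximalIn (omegaGL Q) H) (h : RSub Q H) : Goal10p Q H := by
  obtain ⟨F₀, r, P, ζ, hr, hc, hζ, hP, hle⟩ := h
  exact Goal10p.mk12 ⟨F₀, r, P, ζ, hr, hc, hζ, hP,
    eq_inf_of_maximal hH hle (not_le_subfield hQ (by simp) F₀ r hr hc P ζ hζ hP)⟩

theorem frame_p (hQ : IsNondegenerateQuadraticForm Q) (hplus : IsPlusTypeOn Q ⊤)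
    (hH : IsMaximalIn (omegaGL Q) H) (h : RFrame Q H) : Goal10p Q H := by
  have hfix := fixesQuad_of_le_omega hH.1.le
  by_cases hp : (Fintype.card F).Prime
  · obtain ⟨t, D, hD, hle⟩ := h
    have h1 := Cfsg.Agent.Lib.Helper55.Asch.card_of_decomp D hD.decomp.decomp
    simp only [Fintype.card_fin, mul_one] at h1
    subst h1
    exact Goal10p.mk7 ⟨⟨_, hp, rfl, (plus_iff_frame (by simp) hQ D hD).1 hplus⟩, D, hD,
      eq_inf_of_maximal hH hle (omega_not_le_orthDecomp hQ (by simp) D hD)⟩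
  · exact sub_p hQ hH (rsub_of_frame hp hQ hfix h)

theorem card_small (h : ¬ 7 ≤ Fintype.card F) :
    Fintype.card F = 2 ∨ Fintype.card F = 3 ∨ Fintype.card F = 4 ∨ Fintype.card F = 5 := by
  have h1 : 1 < Fintype.card F := Fintype.one_lt_card
  have h6 : Fintype.card F ≠ 6 := by
    intro h6
    have := FiniteField.isPrimePow_card F
    rw [h6] at this
    revert this
    decide +kernel
  omega

theorem sing_p (hQ : IsNondegenerateQuadraticForm Q) (hplus : IsPlusTypeOn Q ⊤)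
    (hH : IsMaximalIn (omegaGL Q) H) (h : RSing Q H) : Goal10p Q H := by
  obtain ⟨W, h0, hW, hle⟩ := h
  by_cases h4 : Module.finrank F W = 4
  · obtain ⟨U, ⟨hU, hUd⟩, hWU, hleU⟩ := sing_codim_one (by simp) hQ hplus hH.1.le W hW (by simp [h4]) hle
    simp only [Fintype.card_fin] at hUd
    have hU0 : U ≠ ⊥ := by
      rintro rfl
      simp at hUd
    exact Goal10p.mk1 ⟨U, hU0, hU, by omega,
      eq_inf_of_maximal hH hleU (not_le_sing hQ (by simp) U hU0 hU)⟩
  · exact Goal10p.mk1 ⟨W, h0, hW, h4, eq_inf_of_maximal hH hle (not_le_sing hQ (by simp) W h0 hW)⟩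

theorem dec_p (hQ : IsNondegenerateQuadraticForm Q) (hplus : IsPlusTypeOn Q ⊤)
    (hH : IsMaximalIn (omegaGL Q) H) (h : RDec Q H) : Goal10p Q H := by
  have hfix := fixesQuad_of_le_omega hH.1.le
  obtain ⟨t, k, D, hD, hle⟩ := h
  have h1 := Cfsg.Agent.Lib.Helper55.Asch.card_of_decomp D hD.decomp.decomp
  simp only [Fintype.card_fin] at h1
  have h2 := hD.decomp.decomp.two_le
  have heq := eq_inf_of_maximal hH hle (omega_not_le_orthDecomp hQ (by simp) D hD)
  have hk : k = 1 ∨ k = 2 ∨ k = 5 := by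
    have hk10 : k ∣ 10 := ⟨t, by rw [← h1, mul_comm]⟩
    have : k ≤ 10 := Nat.le_of_dvd (by norm_num) hk10
    interval_cases k <;> omega
  rcases hk with rfl | rfl | rfl
  · exact frame_p hQ hplus hH ⟨t, D, hD, hle⟩
  · have ht : t = 5 := by omega
    subst ht
    by_cases hq : 7 ≤ Fintype.card F
    · exact Goal10p.mk8 ⟨hq, D, hD, heq⟩
    · have hpl : ∀ i, IsPlusTypeOn Q (D i) := by
        intro i
        by_contra hi
        exact not_plus_of_minus_planes (by simp) hQ D hD i hi hplus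
      rcases card_small hq with hq | hq | hq | hq
      · rcases planes_plus_two hq hQ hfix D hD hpl hle with h | h
        · exact sing_p hQ hplus hH h
        · exact ndOut_p hQ hplus (vec_out10 hQ hH h)
      · exact ndOut_p hQ hplus (nd_out10 hQ hH (planes_plus_three hq hQ hfix D hD hpl hle))
      · exact sub_p hQ hH (Cfsg.Agent.Lib.Helper81.OE.planes_plus_four hq hQ hfix D hD hpl hle)
      · exact frame_p hQ hplus hH (rframe_of_plus_planes_five hq hQ hfix D hD hpl hle)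
  · have ht : t = 2 := by omega
    subst ht
    have hodd : Odd (Fintype.card F) := odd_card_of_odd_nondeg hQ (D 0) (hD.decomp.nondegenerate 0)
      (by rw [hD.decomp.decomp.finrank_eq]; decide)
    exact halves_p hQ hplus hodd D hD.decomp heq

theorem f2_p (hQ : IsNondegenerateQuadraticForm Q) (hplus : IsPlusTypeOn Q ⊤)
    (hH : IsMaximalIn (omegaGL Q) H) (hirr : ActsIrreducibly (matrixSet H)) (h : RF2 Q H) :
    Goal10p Q H := by
  have hfix := fixesQuad_of_le_omega hH.1.le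
  obtain ⟨K, hK, hadj, hle⟩ := h
  have heq := eq_inf_of_maximal hH hle (not_le_field hQ (by simp) Nat.prime_two K hK)
  by_cases hsa : IsSelfAdjointFor (QuadraticMap.polar Q) K
  · exact Goal10p.mk11 ⟨odd_of_selfadjoint_field (by simp) hQ hfix hirr K hK hsa hle, K, hK, hsa, heq⟩
  · exact (not_plus_of_similitude_field (by simp) hQ K hK
      (similitude_of_not_selfadjoint (by simp) hQ hfix hirr K hK hadj hsa hle) hplus).elim

theorem pair_p (hQ : IsNondegenerateQuadraticForm Q) (hplus : IsPlusTypeOn Q ⊤)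
    (hH : IsMaximalIn (omegaGL Q) H) (h : RPair Q H) : Goal10p Q H := by
  obtain ⟨k, D, hD, hts, hle⟩ := h
  have h1 := Cfsg.Agent.Lib.Helper55.Asch.card_of_decomp D hD
  simp only [Fintype.card_fin] at h1
  have hk : k = 5 := by omega
  subst hk
  have hne : D 0 ≠ ⊥ := by
    intro h
    have := hD.finrank_eq 0
    rw [h] at this
    simp at this
  exact sing_p hQ hplus hH ⟨D 0, hne, hts 0, stab_of_pair_odd hQ hH.1.le (by decide) D hD hts hle⟩

theorem row10p (hQ : IsNondegenerateQuadraticForm Q) (hplus : IsPlusTypeOn Q ⊤)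
    (hH : IsMaximalIn (omegaGL Q) H) : Goal10p Q H := by
  have hfix := fixesQuad_of_le_omega hH.1.le
  by_cases hirr : ActsIrreducibly (matrixSet H)
  · rcases core10 (by simp) hQ H hfix with h | h | ⟨-, h⟩ | h | h | h | h | h
    · exact sing_p hQ hplus hH h
    · exact ndOut_p hQ hplus (nd_out10 hQ hH h)
    · exact ndOut_p hQ hplus (vec_out10 hQ hH h)
    · exact dec_p hQ hplus hH h
    · exact pair_p hQ hplus hH h
    · exact f2_p hQ hplus hH hirr h
    · exact sub_p hQ hH h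
    · exact Goal10p.mk13 h
  · rcases o_reducible hQ hfix hirr with h | h | ⟨-, h⟩
    · exact sing_p hQ hplus hH h
    · exact ndOut_p hQ hplus (nd_out10 hQ hH h)
    · exact ndOut_p hQ hplus (vec_out10 hQ hH h)

end rows

end Cfsg.Agent.Lib.Helper90.OE
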